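import Cfsg.Agent.Blocks.KleinFour.Isometry.Columns
import Cfsg.Agent.Blocks.Defect.SubgroupTransport
import Cfsg.Agent.Eq.Def_BlockLocal

/-!
# Perfect isometries for blocks with a Klein four defect group
-/

set_option autoImplicit false
set_option linter.style.haveILetI false
open Cfsg CfsgLib
open CfsgLib.Blocks CfsgLib.Blocks.HeightZero
open scoped MonoidAlgebra

namespace CfsgLib.Blocks.KleinFour

universe u v

/-- Three orthogonal sign vectors of length four: the products with the first one take each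
pattern exactly once. -/
theorem sign_pattern {γ : Type u} (S : Finset γ) (f : Fin 3 → γ → ℤ) (hS : S.card = 4)
    (hf : ∀ i, ∀ a ∈ S, f i a = 1 ∨ f i a = -1)
    (ho : ∀ i j, i ≠ j → ∑ a ∈ S, f i a * f j a = 0) :
    Set.InjOn (fun a => (f 0 a * f 1 a, f 0 a * f 2 a)) (S : Set γ) ∧
    ∀ s t : ℤ, (s = 1 ∨ s = -1) → (t = 1 ∨ t = -1) →
      ∃ a ∈ S, (f 0 a * f 1 a, f 0 a * f 2 a) = (s, t) := by
  classical
  have sq : ∀ {z : ℤ}, z = 1 ∨ z = -1 → z * z = 1 := fun h => by rcases h with h | h <;> rw [h] <;> rfl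
  have pm : ∀ {y z : ℤ}, (y = 1 ∨ y = -1) → (z = 1 ∨ z = -1) → y * z = 1 ∨ y * z = -1 := fun hy hz => by
    rcases hy with h | h <;> rcases hz with h' | h' <;> rw [h, h'] <;> decide
  have key : ∀ s t : ℤ, ∑ a ∈ S, (1 + s * (f 0 a * f 1 a)) * (1 + t * (f 0 a * f 2 a)) = 4 := by
    intro s t
    have e : ∀ a ∈ S, (1 + s * (f 0 a * f 1 a)) * (1 + t * (f 0 a * f 2 a)) =
        1 + s * (f 0 a * f 1 a) + t * (f 0 a * f 2 a) + s * t * (f 1 a * f 2 a) := fun a ha => by
      have h := sq (hf 0 a ha)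
      linear_combination (s * t * (f 1 a * f 2 a)) * h
    rw [Finset.sum_congr rfl e, Finset.sum_add_distrib, Finset.sum_add_distrib,
      Finset.sum_add_distrib, ← Finset.mul_sum, ← Finset.mul_sum, ← Finset.mul_sum,
      ho 0 1 (by decide), ho 0 2 (by decide), ho 1 2 (by decide)]
    simp [hS]
  refine ⟨fun a ha b hb h => ?_, fun s t hs ht => ?_⟩
  · simp only [Prod.mk.injEq] at h
    by_contra hab
    have hnn : ∀ c ∈ S, 0 ≤ (1 + f 0 a * f 1 a * (f 0 c * f 1 c)) *
        (1 + f 0 a * f 2 a * (f 0 c * f 2 c)) := fun c hc => by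
      rcases pm (pm (hf 0 a ha) (hf 1 a ha)) (pm (hf 0 c hc) (hf 1 c hc)) with e | e <;>
        rcases pm (pm (hf 0 a ha) (hf 2 a ha)) (pm (hf 0 c hc) (hf 2 c hc)) with e' | e' <;>
        rw [e, e'] <;> norm_num
    have := Finset.sum_le_sum_of_subset_of_nonneg (s := {a, b}) (t := S)
      (f := fun c => (1 + f 0 a * f 1 a * (f 0 c * f 1 c)) * (1 + f 0 a * f 2 a * (f 0 c * f 2 c)))
      (by
        intro c hc
        rcases Finset.mem_insert.1 hc with rfl | hc
        · exact ha
        · rw [Finset.mem_singleton.1 hc]; exact hb)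
      fun c hc _ => hnn c hc
    rw [key, Finset.sum_pair hab, ← h.1, ← h.2, sq (pm (hf 0 a ha) (hf 1 a ha)),
      sq (pm (hf 0 a ha) (hf 2 a ha))] at this
    norm_num at this
  · by_contra hne
    push Not at hne
    have := key s t
    rw [Finset.sum_eq_zero fun a ha => ?_] at this
    · norm_num at this
    have h := hne a ha
    rcases pm (hf 0 a ha) (hf 1 a ha) with e | e <;> rcases pm (hf 0 a ha) (hf 2 a ha) with e' | e' <;>
      rw [e, e'] at h ⊢ <;> rcases hs with rfl | rfl <;> rcases ht with rfl | rfl <;>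
      first | exact absurd rfl h | norm_num

/-- Orthogonal sign vectors of length four are equal up to a signed bijection. -/
theorem exists_signed_matching {α : Type u} {β : Type v} [Nonempty α] (T : Finset α) (T' : Finset β)
    (hT : T.card = 4) (hT' : T'.card = 4) {n : ℕ} (hn : n = 1 ∨ n = 3)
    (v : Fin n → α → ℤ) (w : Fin n → β → ℤ)
    (hv : ∀ i, ∀ a ∈ T, v i a = 1 ∨ v i a = -1) (hw : ∀ i, ∀ b ∈ T', w i b = 1 ∨ w i b = -1)
    (hvo : ∀ i j, i ≠ j → ∑ a ∈ T, v i a * v j a = 0)
    (hwo : ∀ i j, i ≠ j → ∑ b ∈ T', w i b * w j b = 0) :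
    ∃ (π : β → α) (ε : β → ℤ), Set.BijOn π T' T ∧ (∀ b ∈ T', ε b = 1 ∨ ε b = -1) ∧
      ∀ i, ∀ b ∈ T', v i (π b) * ε b = w i b := by
  classical
  have sq : ∀ {z : ℤ}, z = 1 ∨ z = -1 → z * z = 1 := fun h => by rcases h with h | h <;> rw [h] <;> rfl
  have pm : ∀ {y z : ℤ}, (y = 1 ∨ y = -1) → (z = 1 ∨ z = -1) → y * z = 1 ∨ y * z = -1 := fun hy hz => by
    rcases hy with h | h <;> rcases hz with h' | h' <;> rw [h, h'] <;> decide
  rcases hn with rfl | rfl
  · obtain ⟨π, hπ⟩ : ∃ π : β → α, Set.BijOn π T' T := by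
      let e := Finset.equivOfCardEq (hT'.trans hT.symm)
      refine ⟨fun b => if h : b ∈ T' then (e ⟨b, h⟩ : α) else Classical.arbitrary α, ?_, ?_, ?_⟩
      · intro b hb
        simp [Finset.mem_coe.1 hb]
      · intro a ha b hb h
        simp only [dif_pos (Finset.mem_coe.1 ha), dif_pos (Finset.mem_coe.1 hb)] at h
        exact congrArg Subtype.val (e.injective (Subtype.ext h))
      · intro a ha
        exact ⟨e.symm ⟨a, ha⟩, (e.symm ⟨a, ha⟩).2, by simp⟩
    refine ⟨π, fun b => v 0 (π b) * w 0 b, hπ,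
      fun b hb => pm (hv 0 _ (hπ.mapsTo hb)) (hw 0 b hb), fun i b hb => ?_⟩
    rw [Subsingleton.elim i 0, ← mul_assoc, sq (hv 0 _ (hπ.mapsTo hb)), one_mul]
  have hA := sign_pattern T v hT hv hvo
  have hB := sign_pattern T' w hT' hw hwo
  have hsel : ∀ b : β, ∃ a : α, b ∈ T' →
      a ∈ T ∧ (v 0 a * v 1 a, v 0 a * v 2 a) = (w 0 b * w 1 b, w 0 b * w 2 b) := by
    intro b
    by_cases hb : b ∈ T'
    · obtain ⟨a, ha, h⟩ := hA.2 _ _ (pm (hw 0 b hb) (hw 1 b hb)) (pm (hw 0 b hb) (hw 2 b hb))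
      exact ⟨a, fun _ => ⟨ha, h⟩⟩
    · exact ⟨Classical.arbitrary α, fun h => absurd h hb⟩
  choose π hπ using hsel
  have hmaps : Set.MapsTo π T' T := fun b hb => (hπ b hb).1
  have hinj : Set.InjOn π T' := by
    intro b hb c hc h
    have e := (hπ b hb).2
    rw [h, (hπ c hc).2] at e
    exact hB.1 hb hc e.symm
  refine ⟨π, fun b => v 0 (π b) * w 0 b, ⟨hmaps, hinj, ?_⟩,
    fun b hb => pm (hv 0 _ (hmaps hb)) (hw 0 b hb), fun i b hb => ?_⟩
  · intro a ha
    have hc : (T'.image π) = T := Finset.eq_of_subset_of_card_le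
      (Finset.image_subset_iff.2 fun b hb => hmaps hb)
      (by rw [Finset.card_image_of_injOn hinj, hT, hT'])
    rw [← hc] at ha
    obtain ⟨b, hb, rfl⟩ := Finset.mem_image.1 (Finset.mem_coe.1 ha)
    exact ⟨b, hb, rfl⟩
  · have e := (hπ b hb).2
    simp only [Prod.mk.injEq] at e
    have h0 := sq (hw 0 b hb)
    have hcase : i = 0 ∨ i = 1 ∨ i = 2 := by revert i; decide
    rcases hcase with rfl | rfl | rfl
    · rw [← mul_assoc, sq (hv 0 _ (hmaps hb)), one_mul]
    · calc _ = v 0 (π b) * v 1 (π b) * w 0 b := by ring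
        _ = w 0 b * w 1 b * w 0 b := by rw [e.1]
        _ = _ := by linear_combination (w 1 b) * h0
    · calc _ = v 0 (π b) * v 2 (π b) * w 0 b := by ring
        _ = w 0 b * w 2 b * w 0 b := by rw [e.2]
        _ = _ := by linear_combination (w 2 b) * h0

variable {G : Type u} [Group G] [Finite G] {M : Ideal AlgInt} [M.IsMaximal]
  [CharP (kres M) 2] [Fact (Nat.Prime 2)] {B : Set (IrrCharacter G)} {P : Subgroup G}

/-- Corresponding blocks have the same number of Brauer characters. -/
theorem exists_maxPairs (hM : IsPModular 2 M) (hB : IsPBlock M B) (hPD : IsDefectGroup 2 M B P)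
    (hV : IsKleinFour P) {N : Subgroup G} (hN : N = Subgroup.normalizer (P : Set G))
    {c : Set (IrrCharacter N)} (hcD : IsDefectGroup 2 M c (P.subgroupOf N))
    (hc : IsInducedBlock M N c B) :
    ∃ (g : MonoidAlgebra (kres M) G) (g' : MonoidAlgebra (kres M) N),
      IsMaxPairIdem 2 ⊤ (topEl M B) P g ∧
      IsMaxPairIdem 2 ⊤ (topEl M c) (P.subgroupOf N) g' ∧
      blockRank 2 B = blockRank 2 c := by
  classical
  have hPN : P ≤ N := hN ▸ Subgroup.le_normalizer
  set P' := P.subgroupOf N with hP'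
  have hV' : IsKleinFour P' := isKleinFour_subgroupOf hV hPN
  obtain ⟨g', hmax'⟩ := exists_maxPair (M := M) hc.1 hcD
  have hinj := N.subtype_injective
  have hmap : P'.map N.subtype = P := Subgroup.map_subgroupOf_eq_of_le hPN
  have hCN : Subgroup.centralizer (P : Set G) ≤ N := hN ▸ Subgroup.centralizer_le_normalizer _
  have hCmap : (Subgroup.centralizer (P' : Set N)).map N.subtype =
      Subgroup.centralizer (P : Set G) := by
    rw [map_centralizer_eq hinj, hmap, Subgroup.range_subtype, inf_eq_right.2 hCN]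
  have hD := (isDefectGroup_topEl_iff (M := M) hB P).1 hPD
  have hp2 : IsPGroup 2 P := hD.2.1
  set g := emb (kres M) N.subtype g' with hg
  have hgb : IsBlockIdem (Subgroup.centralizer (P : Set G)) g := by
    have h := hmax'.1.1.2.2
    rw [top_inf_eq] at h
    obtain ⟨d, hd, hdg⟩ := exists_subEl_eq (M := M) h
    have := isBlockIdem_blockEl (M := M) (f := N.subtype.comp (Subgroup.centralizer
      (P' : Set N)).subtype) (hinj.comp (Subgroup.subtype_injective _)) hd
    rw [blockEl_eq_emb_subEl (φ := N.subtype), hdg, ← hg, MonoidHom.range_comp,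
      Subgroup.range_subtype, hCmap] at this
    exact this
  have hover : BrOver P g (topEl M B) := by
    have h1 := congrArg (emb (kres M) N.subtype) (hmax'.1.2 : brTrunc P' (topEl M c) * g' = g')
    rw [map_mul, emb_brTrunc hinj, hmap, ← hg, ← blockEl_eq_emb_topEl] at h1
    have hbc : IsBlockIdem N (subEl M N c) := isBlockIdem_subEl hc.1
    change brTrunc P (subEl M N c) * g = g at h1
    rw [hbc.brTrunc_eq_self hp2 hPN hN.le] at h1
    have h2 : brTrunc P (topEl M B) * subEl M N c = subEl M N c :=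
      (isInducedBlock_iff_brOver hM hp2 hPN hCN hN.le hc.1 hB).1 hc
    show brTrunc P (topEl M B) * g = g
    conv_lhs => rw [← h1, ← mul_assoc, h2]
    exact h1
  have hmax : IsMaxPairIdem 2 ⊤ (topEl M B) P g := by
    refine ⟨⟨⟨hp2, le_top, by rwa [top_inf_eq]⟩, hover⟩, fun R r hR hle => ?_⟩
    refine (Subgroup.eq_of_le_of_card_ge hle.le (hD.card_le le_top hR.1.1 fun h0 => ?_)).symm
    have h1 : brTrunc R (topEl M B) * r = r := hR.2
    rw [h0, zero_mul] at h1
    exact hR.1.2.2.ne_zero h1.symm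
  refine ⟨g, g', hmax, hmax', ?_⟩
  rw [(natCard_and_rank hM hB hPD hV hmax).2, (natCard_and_rank hM hc.1 hcD hV' hmax').2]
  have hC : Subgroup.centralizer (P' : Set N) = (Subgroup.centralizer (P : Set G)).subgroupOf N := by
    rw [← hCmap, Subgroup.subgroupOf, Subgroup.comap_map_eq_self_of_injective hinj]
  have hT : pairStab ⊤ P' g' = (pairStab ⊤ P g).subgroupOf N := by
    ext n
    rw [Subgroup.mem_subgroupOf, mem_pairStab, mem_pairStab]
    have hn : n ∈ Subgroup.normalizer (P' : Set N) := by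
      rw [Subgroup.mem_normalizer_iff]
      intro y
      exact Subgroup.mem_normalizer_iff.1 (hN.le n.2) (y : G)
    have hconj : Blocks.conjA (n : G) g = g ↔ Blocks.conjA n g' = g' := by
      rw [hg, show (n : G) = N.subtype n from rfl, ← emb_conjA, (emb_injective hinj).eq_iff]
    exact ⟨fun h => ⟨⟨trivial, hN.le n.2⟩, hconj.2 h.2⟩, fun h => ⟨⟨trivial, hn⟩, hconj.1 h.2⟩⟩
  rw [hC, hT, Subgroup.relIndex_subgroupOf ((pairStab_le_normalizer _ _ _).trans hN.ge)]

/-- **A perfect isometry with the Brauer correspondent.** -/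
theorem exists_perfectIsometry (hM : IsPModular 2 M) (hB : IsPBlock M B)
    (hPD : IsDefectGroup 2 M B P) (hV : IsKleinFour P) {N : Subgroup G}
    (hN : N = Subgroup.normalizer (P : Set G))
    {c : Set (IrrCharacter N)} (hcD : IsDefectGroup 2 M c (P.subgroupOf N))
    (hc : IsInducedBlock M N c B) :
    ∃ (I : IrrCharacter N → IrrCharacter G) (ε : IrrCharacter N → ℤ),
      IsPerfectIsometry 2 M c B I ε := by
  classical
  haveI := Fintype.ofFinite G
  haveI := Fintype.ofFinite N
  have hV' : IsKleinFour (P.subgroupOf N) := isKleinFour_subgroupOf hV (hN ▸ Subgroup.le_normalizer)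
  obtain ⟨g, g', hmax, hmax', hl⟩ := exists_maxPairs hM hB hPD hV hN hcD hc
  obtain ⟨v, hv, hvo, hvr, hvs, hvd⟩ := exists_columns hM hB hPD hV hmax
  obtain ⟨w₀, hw₀, hwo₀, hwr₀, hws₀, hwd₀⟩ := exists_columns hM hc.1 hcD hV' hmax'
  obtain ⟨hk, hlB⟩ := natCard_and_rank hM hB hPD hV hmax
  obtain ⟨hk', -⟩ := natCard_and_rank hM hc.1 hcD hV' hmax'
  obtain ⟨-, hidx⟩ := inertial hB hmax hV
  obtain ⟨w, hw, hwo, hwr, hws, hwd⟩ : ∃ w : Fin (4 - blockRank 2 B) → IrrCharacter N → ℤ,
      (∀ i, ∀ χ ∈ c, w i χ = 1 ∨ w i χ = -1) ∧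
      (∀ i j, i ≠ j → ∑ χ ∈ c.toFinite.toFinset, w i χ * w j χ = 0) ∧
      (∀ g, IsPRegular 2 g → ∀ i, colPair c (w i) g = 0) ∧
      (∀ g, ¬ IsPRegular 2 g → ∀ χ ∈ c,
        (χ : N → ℂ) g = 4⁻¹ * ∑ i, (w i χ : ℂ) * colPair c (w i) g) ∧
      (∀ g, ¬ IsPRegular 2 g → ∀ i,
        MemLocalRing M (colPair c (w i) g / (Nat.card (Subgroup.centralizer ({g} : Set N)) : ℂ)) ∧
        MemLocalRing M (colPair c (w i) g / 4)) := by
    rw [hl]; exact ⟨w₀, hw₀, hwo₀, hwr₀, hws₀, hwd₀⟩
  obtain ⟨χ₀, -⟩ := nonempty_of_isPBlock hB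
  haveI : Nonempty (IrrCharacter G) := ⟨χ₀⟩
  obtain ⟨I, ε, hI, hε, hIε⟩ := exists_signed_matching B.toFinite.toFinset c.toFinite.toFinset
    (by rw [← Nat.card_eq_card_finite_toFinset]; exact hk)
    (by rw [← Nat.card_eq_card_finite_toFinset]; exact hk')
    (n := 4 - blockRank 2 B)
    (by rcases hidx with h | ⟨h, -⟩ <;> rw [hlB, h] <;> norm_num)
    v w (fun i a ha => hv i a ((Set.Finite.mem_toFinset _).1 ha))
    (fun i a ha => hw i a ((Set.Finite.mem_toFinset _).1 ha)) hvo hwo
  simp only [Set.Finite.coe_toFinset, Set.Finite.mem_toFinset] at hI hε hIε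
  refine ⟨I, ε, hI, hε, fun x y => ?_⟩
  have hμ : ∀ x y, signedBijectionKernel c I ε x y = ∑ η ∈ c.toFinite.toFinset,
      (ε η : ℂ) * (I η : G → ℂ) x * (η : N → ℂ) y := fun x y =>
    finsum_mem_eq_finite_toFinset_sum _ _
  have htr : ∀ (i) (f : IrrCharacter G → ℂ), ∑ η ∈ c.toFinite.toFinset,
      (w i η : ℂ) * ((ε η : ℂ) * f (I η)) = ∑ χ ∈ B.toFinite.toFinset, (v i χ : ℂ) * f χ := by
    intro i f
    refine Finset.sum_bij (fun η _ => I η) (fun η hη => ?_) (fun a ha b hb h => ?_) (fun χ hχ => ?_)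
      (fun η hη => ?_)
    · simp only [Set.Finite.mem_toFinset] at hη ⊢
      exact hI.mapsTo hη
    · simp only [Set.Finite.mem_toFinset] at ha hb
      exact hI.injOn ha hb h
    · simp only [Set.Finite.mem_toFinset] at hχ ⊢
      obtain ⟨η, hη, h⟩ := hI.surjOn hχ
      exact ⟨η, hη, h⟩
    · rw [Set.Finite.mem_toFinset] at hη
      rw [← hIε i η hη]
      push_cast
      rcases hε η hη with e | e <;> rw [e] <;> push_cast <;> ring
  -- one argument singular, the other arbitrary
  have hY : ∀ x y, ¬ IsPRegular 2 y → signedBijectionKernel c I ε x y =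
      4⁻¹ * ∑ i, colPair c (w i) y * colPair B (v i) x := by
    intro x y hy
    rw [hμ, Finset.sum_congr rfl fun η hη => by
      rw [hws y hy η ((Set.Finite.mem_toFinset _).1 hη), ← mul_assoc, mul_comm _ (4⁻¹ : ℂ),
        mul_assoc, Finset.mul_sum]]
    rw [← Finset.mul_sum, Finset.sum_comm]
    congr 1
    refine Finset.sum_congr rfl fun i _ => ?_
    rw [show colPair B (v i) x = ∑ χ ∈ B.toFinite.toFinset, (v i χ : ℂ) * (χ : G → ℂ) x from rfl,
      ← htr i fun χ => (χ : G → ℂ) x, Finset.mul_sum]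
    exact Finset.sum_congr rfl fun η _ => by ring
  have hX : ∀ x y, ¬ IsPRegular 2 x → signedBijectionKernel c I ε x y =
      4⁻¹ * ∑ i, colPair B (v i) x * colPair c (w i) y := by
    intro x y hx
    rw [hμ, Finset.sum_congr rfl fun η hη => by
      rw [hvs x hx (I η) (hI.mapsTo ((Set.Finite.mem_toFinset _).1 hη)),
        show ∀ a s d : ℂ, a * ((4 : ℂ)⁻¹ * s) * d = (4 : ℂ)⁻¹ * (s * (a * d)) from
          fun a s d => by ring, Finset.sum_mul]]
    rw [← Finset.mul_sum, Finset.sum_comm]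
    congr 1
    refine Finset.sum_congr rfl fun i _ => ?_
    conv_rhs => rw [show colPair c (w i) y = ∑ η ∈ c.toFinite.toFinset, (w i η : ℂ) * (η : N → ℂ) y from rfl, Finset.mul_sum]
    refine Finset.sum_congr rfl fun η hη => ?_
    rw [← hIε i η ((Set.Finite.mem_toFinset _).1 hη)]
    push_cast
    ring
  have h0 : ∀ x y, ¬ (IsPRegular 2 x ↔ IsPRegular 2 y) → signedBijectionKernel c I ε x y = 0 := by
    intro x y hxy
    by_cases hx : IsPRegular 2 x
    · rw [hY x y (fun hy => hxy (iff_of_true hx hy)), Finset.sum_eq_zero, mul_zero]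
      exact fun i _ => by rw [hvr x hx i, mul_zero]
    · rw [hX x y hx, Finset.sum_eq_zero, mul_zero]
      exact fun i _ => by rw [hwr y (by_contra fun hy => hxy (iff_of_false hx hy)) i, mul_zero]
  refine ⟨?_, ?_, (em _).imp_right (h0 x y)⟩
  · by_cases hx : IsPRegular 2 x
    swap
    · by_cases hy : IsPRegular 2 y
      · rw [h0 x y (fun h => hx (h.2 hy)), zero_div]
        exact (localRing M).zero_mem
      rw [hX x y hx, mul_div_assoc, Finset.sum_div, Finset.mul_sum]
      refine (localRing M).sum_mem fun i _ => ?_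
      have h := (localRing M).mul_mem (hvd x hx i).1 (hwd y hy i).2
      refine Eq.subst (motive := fun z => MemLocalRing M z) ?_ h
      ring
    by_cases hy : IsPRegular 2 y
    swap
    · rw [h0 x y (fun h => hy (h.1 hx)), zero_div]
      exact (localRing M).zero_mem
    refine memLocalRing_div_centralizer hM (f := fun z => signedBijectionKernel c I ε z y)
      (fun a b => ?_) (fun z hz => h0 z y fun h => hz (h.2 hy)) (fun θ => ?_) x
    · simp only [hμ, irrCharacter_conj]
    · have e : (fun z => signedBijectionKernel c I ε z y) = ∑ η ∈ c.toFinite.toFinset,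
          ((ε η : ℂ) * (η : N → ℂ) y) • (I η : G → ℂ) := by
        funext z
        rw [hμ, Finset.sum_apply]
        exact Finset.sum_congr rfl fun η _ => by rw [Pi.smul_apply, smul_eq_mul]; ring
      rw [e, Chars.classInner_sum_left]
      refine (localRing M).sum_mem fun η _ => ?_
      rw [Chars.classInner_smul_left, Chars.classInner_irr]
      split_ifs
      · rw [mul_one]
        refine (localRing M).mul_mem ?_ (memLocalRing_apply (Chars.isCharacter_coe η) y)
        simpa using memLocalRing_coe (M := M) ((ε η : ℤ) : AlgInt)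
      · rw [mul_zero]; exact (localRing M).zero_mem
  · by_cases hx : IsPRegular 2 x
    swap
    · by_cases hy : IsPRegular 2 y
      · rw [h0 x y (fun h => hx (h.2 hy)), zero_div]
        exact (localRing M).zero_mem
      rw [hX x y hx, mul_div_assoc, Finset.sum_div, Finset.mul_sum]
      refine (localRing M).sum_mem fun i _ => ?_
      have h := (localRing M).mul_mem (hvd x hx i).2 (hwd y hy i).1
      refine Eq.subst (motive := fun z => MemLocalRing M z) ?_ h
      ring
    by_cases hy : IsPRegular 2 y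
    swap
    · rw [h0 x y (fun h => hy (h.1 hx)), zero_div]
      exact (localRing M).zero_mem
    refine memLocalRing_div_centralizer hM (f := fun z => signedBijectionKernel c I ε x z)
      (fun a b => ?_) (fun z hz => h0 x z fun h => hz (h.1 hx)) (fun θ => ?_) y
    · simp only [hμ, irrCharacter_conj]
    · have e : (fun z => signedBijectionKernel c I ε x z) = ∑ η ∈ c.toFinite.toFinset,
          ((ε η : ℂ) * (I η : G → ℂ) x) • (η : N → ℂ) := by
        funext z
        rw [hμ, Finset.sum_apply]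
        exact Finset.sum_congr rfl fun η _ => by rw [Pi.smul_apply, smul_eq_mul]
      rw [e, Chars.classInner_sum_left]
      refine (localRing M).sum_mem fun η _ => ?_
      rw [Chars.classInner_smul_left, Chars.classInner_irr]
      split_ifs
      · rw [mul_one]
        refine (localRing M).mul_mem ?_ (memLocalRing_apply (Chars.isCharacter_coe (I η)) x)
        simpa using memLocalRing_coe (M := M) ((ε η : ℤ) : AlgInt)
      · rw [mul_zero]; exact (localRing M).zero_mem

end CfsgLib.Blocks.KleinFour
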